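/-
Fischer spaces: line systems with three points on a line described by their third point operation.
-/
import Cfsg.Agent.Lib.ThreeT.Basic
import Cfsg.Agent.Lib.ThreeT.Sym

set_option autoImplicit false

namespace CA.Rw

def h54Base : List Rule := [([0, 0], []), ([1, 1], []), ([2, 2], []), ([1, 0, 1], [0, 1, 0]), ([2, 0, 2], [0, 2, 0]), ([2, 1, 2], [1, 2, 1]), ([1, 0, 1, 2, 1, 0, 1], [2, 1, 0, 1, 2])]

def h54Items : List Item := [⟨[2, 0, 2, 1, 2], 5, 2, 4, 0⟩,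
  ⟨[2, 1, 2, 0, 2], 5, 2, 6, 0⟩,
  ⟨[1, 0, 1, 2, 1, 0, 1], 5, 4, 8, 0⟩,
  ⟨[2, 0, 1, 2, 1, 0, 1], 6, 4, 2, 0⟩,
  ⟨[0, 0, 1, 0, 2, 0, 1, 0], 4, 0, 1, 1⟩,
  ⟨[1, 0, 2, 0, 1, 0, 0], 0, 0, 5, 5⟩,
  ⟨[1, 0, 2, 0, 1, 0, 1], 1, 0, 9, 4⟩,
  ⟨[0, 0, 2, 0, 1, 0, 2, 0], 7, 0, 1, 1⟩,
  ⟨[2, 0, 1, 0, 2, 0, 2], 0, 0, 12, 4⟩,
  ⟨[0, 0, 1, 0, 2, 0, 1, 2], 9, 0, 0, 1⟩,
  ⟨[1, 0, 2, 0, 1, 2, 1], 0, 0, 9, 2⟩,
  ⟨[0, 0, 2, 0, 1, 0, 2, 1], 11, 0, 4, 1⟩,
  ⟨[2, 0, 1, 0, 2, 1, 2], 0, 0, 17, 4⟩,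
  ⟨[0, 0, 1, 0, 2, 1, 0, 2], 13, 0, 0, 1⟩,
  ⟨[1, 0, 2, 1, 0, 2, 0], 0, 0, 12, 2⟩,
  ⟨[0, 0, 2, 0, 1, 2, 0, 1], 15, 0, 4, 1⟩,
  ⟨[2, 0, 1, 2, 0, 1, 0], 0, 0, 12, 0⟩,
  ⟨[0, 0, 1, 2, 0, 1, 2, 0], 17, 0, 0, 1⟩,
  ⟨[0, 0, 2, 1, 0, 2, 1, 0], 18, 0, 3, 1⟩,
  ⟨[1, 0, 1, 0, 2, 0, 1, 0], 14, 2, 22, 0⟩,
  ⟨[1, 0, 1, 0, 2, 1, 0, 2], 6, 2, 23, 0⟩]

def h54R : List Rule := [([1, 0, 1, 2, 1, 0, 1], [2, 1, 0, 1, 2]), ([2, 1, 2], [1, 2, 1]), ([2, 0, 2], [0, 2, 0]), ([1, 0, 1], [0, 1, 0]), ([2, 2], []), ([1, 1], []), ([0, 0], []), ([2, 0, 1, 2, 1], [0, 2, 0, 1, 2]), ([2, 1, 0, 2, 0], [1, 2, 1, 0, 2]), ([1, 0, 2, 0, 1, 0], [0, 2, 0, 1, 0, 2]), ([2, 0, 1, 0, 2, 0], [0, 1, 0, 2, 0, 1]), ([1, 0, 2, 0, 1, 2], [0, 2, 0, 1, 2, 0]), ([2, 0, 1, 0, 2, 1], [0, 1, 0, 2, 1, 0]), ([1, 0, 2, 1, 0, 2], [0, 2, 1, 0, 2, 1]), ([2, 0, 1, 2, 0, 1], [0, 1, 2, 0, 1, 2]), ([1, 2, 0, 1, 2, 0], [0, 1, 2, 0, 1, 2]), ([2, 1, 0, 2, 1,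 0], [0, 2, 1, 0, 2, 1]), ([1, 2, 0, 1, 0, 2], [0, 1, 2, 0, 1, 0]), ([1, 2, 1, 0, 2, 1], [0, 1, 2, 1, 0, 2])]

theorem h54_valid {G : Type*} [Group G] {g : ℕ → G} (h : Valid g h54Base) : Valid g h54R :=
  valid_of_subset (complete_valid 11 h h54Items) (by decide +kernel)

end CA.Rw

namespace CA.Fisch

open Cfsg Cfsg.LineSystem

variable {X Y : Type*} {L : Set (Set X)} {M : Set (Set Y)} {t : X → X → X} {s : Y → Y → Y}

/-- `t` is the third point operation of `L` -/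
structure T3 (L : Set (Set X)) (t : X → X → X) : Prop where
  self : ∀ x, t x x = x
  invol : ∀ x y, t x (t x y) = y
  symm : ∀ x y, t x y ≠ y → t y x = t x y
  mem : ∀ l, l ∈ L ↔ ∃ x y, t x y ≠ y ∧ l = {x, y, t x y}

theorem T3.ne (h : T3 L t) {x y : X} (h1 : t x y ≠ y) : x ≠ y := by
  rintro rfl; exact h1 (h.self x)

theorem T3.ne' (h : T3 L t) {x y : X} (h1 : t x y ≠ y) : t x y ≠ x := fun h2 =>
  h.ne h1 (by rw [← h.invol x y, h2, h.self])

theorem T3.symm_ne (h : T3 L t) {x y : X} (h1 : t x y ≠ y) : t y x ≠ x := by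
  rw [h.symm x y h1]; exact h.ne' h1

theorem T3.line (h : T3 L t) {x y : X} (h1 : t x y ≠ y) : ({x, y, t x y} : Set X) ∈ L :=
  (h.mem _).2 ⟨x, y, h1, rfl⟩

theorem T3.line_eq (h : T3 L t) {l : Set X} (hl : l ∈ L) {a b : X} (ha : a ∈ l) (hb : b ∈ l)
    (hab : a ≠ b) : t a b ≠ b ∧ l = {a, b, t a b} := by
  obtain ⟨x, y, h1, rfl⟩ := (h.mem l).1 hl
  have e1 := h.symm x y h1
  have e2 := h.invol x y
  have e3 : t (t x y) x = y := by rw [h.symm x (t x y) (by rw [e2]; exact h1.symm), e2]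
  have e4 : t y (t x y) = x := by rw [← e1, h.invol]
  have e5 : t (t x y) y = x := by rw [h.symm y (t x y) (by rw [e4]; exact (h.ne' h1).symm), e4]
  have n1 := h.ne h1
  have n2 := h.ne' h1
  rcases ha with rfl | rfl | rfl <;> rcases hb with rfl | rfl | rfl <;> try exact absurd rfl hab
  · exact ⟨h1, rfl⟩
  · rw [e2]; exact ⟨h1.symm, by ext; simp; tauto⟩
  · rw [e1]; exact ⟨n2, by ext; simp; tauto⟩
  · rw [e4]; exact ⟨n2.symm, by ext; simp; tauto⟩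
  · rw [e3]; exact ⟨n1.symm, by ext; simp; tauto⟩
  · rw [e5]; exact ⟨n1, by ext; simp; tauto⟩

theorem T3.partialLinear (h : T3 L t) : IsPartialLinear L := fun _ hl _ hm _ _ hxy h1 h2 h3 h4 =>
  (h.line_eq hl h1 h2 hxy).2.trans (h.line_eq hm h3 h4 hxy).2.symm

theorem T3.ncard (h : T3 L t) : ∀ l ∈ L, l.ncard = 3 := by
  intro l hl
  obtain ⟨x, y, h1, rfl⟩ := (h.mem l).1 hl
  exact Set.ncard_eq_three.2 ⟨x, y, t x y, h.ne h1, (h.ne' h1).symm, h1.symm, rfl⟩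

theorem T3.eq_of_mem (h : T3 L t) {x y z : X} (hl : ({x, y, z} : Set X) ∈ L) (hxy : x ≠ y) (hx : z ≠ x)
    (hy : z ≠ y) : t x y = z := by
  have h1 := (h.line_eq hl (a := x) (b := y) (by simp) (by simp) hxy).2
  have : z ∈ ({x, y, t x y} : Set X) := h1 ▸ by simp
  rcases this with h2 | h2 | h2
  · exact absurd h2 hx
  · exact absurd h2 hy
  · exact h2.symm

theorem t3_lineMap (h1 : IsPartialLinear L) (h2 : ∀ l ∈ L, l.ncard = 3) : T3 L (lineMap L) := by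
  have spec : ∀ x y, lineMap L x y ≠ y → lineMap L x y ≠ x ∧ x ≠ y ∧ ({x, y, lineMap L x y} : Set X) ∈ L := by
    intro x y h
    unfold lineMap at h ⊢
    split_ifs at h ⊢ with h3
    · exact ⟨h3.choose_spec.1, h3.choose_spec.2.2⟩
    · exact absurd rfl h
  have uniq : ∀ x y z, z ≠ x → z ≠ y → x ≠ y → ({x, y, z} : Set X) ∈ L → lineMap L x y = z := by
    intro x y z a1 a2 a3 a4
    have h3 : ∃ z : X, z ≠ x ∧ z ≠ y ∧ x ≠ y ∧ ({x, y, z} : Set X) ∈ L := ⟨z, a1, a2, a3, a4⟩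
    unfold lineMap
    rw [dif_pos h3]
    obtain ⟨b1, b2, -, b4⟩ := h3.choose_spec
    have := h1 _ a4 _ b4 x y a3 (by simp) (by simp) (by simp) (by simp)
    have : z ∈ ({x, y, h3.choose} : Set X) := this ▸ by simp
    rcases this with h | h | h
    · exact absurd h a1
    · exact absurd h a2
    · exact h.symm
  refine ⟨fun x => ?_, fun x y => ?_, fun x y h => ?_, fun l => ⟨fun hl => ?_, ?_⟩⟩
  · by_contra h
    exact (spec x x h).2.1 rfl
  · by_cases h : lineMap L x y = y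
    · rw [h, h]
    · obtain ⟨a1, a2, a3⟩ := spec x y h
      exact uniq _ _ _ a2.symm (Ne.symm h) a1.symm (by rwa [Set.pair_comm])
  · obtain ⟨a1, a2, a3⟩ := spec x y h
    exact uniq _ _ _ h a1 a2.symm (by rwa [Set.insert_comm])
  · obtain ⟨x, y, z, a1, a2, a3, rfl⟩ := Set.ncard_eq_three.1 (h2 l hl)
    have := uniq x y z a2.symm a3.symm a1 hl
    exact ⟨x, y, by rw [this]; exact a3.symm, by rw [this]⟩
  · rintro ⟨x, y, h, rfl⟩
    exact (spec x y h).2.2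

theorem T3.isSubspace_iff (h : T3 L t) {S : Set X} : IsSubspace L S ↔ ∀ x ∈ S, ∀ y ∈ S, t x y ∈ S := by
  constructor
  · intro hS x hx y hy
    by_cases h1 : t x y = y
    · rwa [h1]
    · exact hS _ (h.line h1) x hx y hy (h.ne h1) (by simp) (by simp) (by simp)
  · intro hS l hl x hx y hy hxy h1 h2
    rw [(h.line_eq hl h1 h2 hxy).2]
    rintro _ (rfl | rfl | rfl)
    · exact hx
    · exact hy
    · exact hS x hx y hy

theorem isSubspace_span (L : Set (Set X)) (S : Set X) : IsSubspace L (span L S) :=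
  fun l hl x hx y hy hxy h1 h2 z hz T hT => hT.2 l hl x (hx T hT) y (hy T hT) hxy h1 h2 hz

theorem subset_span (L : Set (Set X)) (S : Set X) : S ⊆ span L S := fun _ hx _ hT => hT.1 hx

theorem span_subset {S T : Set X} (h1 : S ⊆ T) (h2 : IsSubspace L T) : span L S ⊆ T :=
  fun _ hx => hx T ⟨h1, h2⟩

theorem T3.restrict (h : T3 L t) {S : Set X} (hS : ∀ x ∈ S, ∀ y ∈ S, t x y ∈ S) :
    T3 (restrict L S) fun x y => ⟨t x y, hS x x.2 y y.2⟩ := by
  refine ⟨fun x => Subtype.ext (h.self x), fun x y => Subtype.ext (h.invol x y),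
    fun x y h1 => Subtype.ext (h.symm x y fun h2 => h1 (Subtype.ext h2)), fun m => ⟨?_, ?_⟩⟩
  · rintro ⟨l, hl, h1, rfl⟩
    obtain ⟨x, y, h2, rfl⟩ := (h.mem l).1 hl
    refine ⟨⟨x, h1 (by simp)⟩, ⟨y, h1 (by simp)⟩, fun h3 => h2 (congrArg Subtype.val h3), ?_⟩
    ext z
    simp [Subtype.ext_iff]
  · rintro ⟨x, y, h1, rfl⟩
    refine ⟨_, h.line fun h2 => h1 (Subtype.ext h2), ?_, ?_⟩
    · rintro _ (rfl | rfl | rfl)
      · exact x.2
      · exact y.2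
      · exact hS x x.2 y y.2
    · ext z
      simp [Subtype.ext_iff]

theorem T3.isIso_of_map (h : T3 L t) (h' : T3 M s) (e : X ≃ Y) (he : ∀ x y, e (t x y) = s (e x) (e y)) :
    IsIso L M e := by
  intro l
  rw [h.mem, h'.mem]
  constructor
  · rintro ⟨x, y, h1, rfl⟩
    exact ⟨e x, e y, by rw [← he]; simpa using h1, by simp [Set.image_insert_eq, he]⟩
  · rintro ⟨x, y, h1, h2⟩
    obtain ⟨x, rfl⟩ := e.surjective x
    obtain ⟨y, rfl⟩ := e.surjective y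
    refine ⟨x, y, by rw [← he] at h1; simpa using h1, e.injective.image_injective ?_⟩
    simp [h2, Set.image_insert_eq, he]

theorem T3.map_of_isIso (h : T3 L t) (h' : T3 M s) {e : X ≃ Y} (he : IsIso L M e) (x y : X) :
    e (t x y) = s (e x) (e y) := by
  by_cases h1 : t x y = y
  · rw [h1]
    by_contra h2
    have h3 := h'.line (Ne.symm h2)
    have h4 := (he {x, y, e.symm (s (e x) (e y))}).2 (by simpa [Set.image_insert_eq] using h3)
    exact (h.line_eq h4 (by simp) (by simp) (fun h5 => h'.ne (Ne.symm h2) (congrArg e h5))).1 h1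
  · have h3 := (he _).1 (h.line h1)
    simp only [Set.image_insert_eq, Set.image_singleton] at h3
    exact (h'.eq_of_mem h3 (e.injective.ne (h.ne h1)) (e.injective.ne (h.ne' h1))
      (e.injective.ne h1)).symm

theorem T3.isomorphic_of_emb (h : T3 L t) (h' : T3 M s) (f : Y → X) (hf : Function.Injective f)
    (he : ∀ x y, f (s x y) = t (f x) (f y)) {S : Set X} (hS : S = Set.range f) :
    Isomorphic (LineSystem.restrict L S) M := by
  subst hS
  have hS : ∀ x ∈ Set.range f, ∀ y ∈ Set.range f, t x y ∈ Set.range f := by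
    rintro _ ⟨x, rfl⟩ _ ⟨y, rfl⟩; exact ⟨_, he x y⟩
  refine ⟨(Equiv.ofInjective f hf).symm, (h.restrict hS).isIso_of_map h' _ fun x y => ?_⟩
  obtain ⟨x, rfl⟩ := (Equiv.ofInjective f hf).surjective x
  obtain ⟨y, rfl⟩ := (Equiv.ofInjective f hf).surjective y
  simp only [Equiv.symm_apply_apply, Equiv.symm_apply_eq]
  exact Subtype.ext (he x y).symm

theorem T3.emb_of_isomorphic (h : T3 L t) (h' : T3 M s) {S : Set X} (hS : IsSubspace L S)
    (hi : Isomorphic (LineSystem.restrict L S) M) :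
    ∃ f : Y → X, Set.range f = S ∧ ∀ x y, f (s x y) = t (f x) (f y) := by
  obtain ⟨e, he⟩ := hi
  refine ⟨fun y => e.symm y, ?_, fun x y => ?_⟩
  · ext x
    exact ⟨by rintro ⟨y, rfl⟩; exact (e.symm y).2, fun hx => ⟨e ⟨x, hx⟩, by simp⟩⟩
  · have := (h.restrict (h.isSubspace_iff.1 hS)).map_of_isIso h' he (e.symm x) (e.symm y)
    simp only [Equiv.apply_symm_apply] at this
    simp [← this]

theorem T3.span_eq (h : T3 L t) (f : Y → X) (he : ∀ x y, f (s x y) = t (f x) (f y)) {S : Set X}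
    (h1 : S ⊆ Set.range f)
    (h2 : ∀ P : Y → Prop, (∀ x y, P x → P y → P (s x y)) → (∀ y, f y ∈ S → P y) → ∀ y, P y) :
    span L S = Set.range f := by
  apply Set.Subset.antisymm
  · refine span_subset h1 (h.isSubspace_iff.2 ?_)
    rintro _ ⟨x, rfl⟩ _ ⟨y, rfl⟩; exact ⟨_, he x y⟩
  · rintro _ ⟨y, rfl⟩
    refine h2 (fun y => f y ∈ span L S) (fun x y hx hy => ?_) (fun y hy => subset_span L S hy) y
    rw [he]
    exact h.isSubspace_iff.1 (isSubspace_span L S) _ hx _ hy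

/-! ### the two models -/

def sA (x y : Fin 2 → ZMod 3) : Fin 2 → ZMod 3 := -x - y

theorem t3_affine : T3 affinePlaneThree sA := by
  refine ⟨by decide +kernel, by decide +kernel, by decide +kernel, fun l => ⟨?_, ?_⟩⟩
  · rintro ⟨v, w, hw, rfl⟩
    have : ∀ v w : Fin 2 → ZMod 3, w ≠ 0 → sA v (v + w) ≠ v + w ∧
        ∀ x, (∃ c : ZMod 3, x = v + c • w) ↔ x = v ∨ x = v + w ∨ x = sA v (v + w) := by decide +kernel
    exact ⟨v, v + w, (this v w hw).1, Set.ext (this v w hw).2⟩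
  · rintro ⟨x, y, h, rfl⟩
    have : ∀ x y : Fin 2 → ZMod 3, sA x y ≠ y → y - x ≠ 0 ∧
        ∀ z, z = x ∨ z = y ∨ z = sA x y ↔ (∃ c : ZMod 3, z = x + c • (y - x)) := by decide +kernel
    exact ⟨x, y - x, (this x y h).1, Set.ext (this x y h).2⟩

def sD (x y : DualAffinePoint) : DualAffinePoint :=
  if h : ((x.1 \ y.1) ∪ (y.1 \ x.1)).card = 2 then ⟨_, h⟩ else y

theorem t3_dual : T3 dualAffinePlaneTwo sD := by
  refine ⟨by decide +kernel, by decide +kernel, by decide +kernel, fun l => ⟨?_, ?_⟩⟩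
  · rintro ⟨i, rfl⟩
    have : ∀ i : Fin 4, ∃ x y : DualAffinePoint, sD x y ≠ y ∧
        ∀ z : DualAffinePoint, i ∉ z.1 ↔ z = x ∨ z = y ∨ z = sD x y := by decide +kernel
    obtain ⟨x, y, h1, h2⟩ := this i
    exact ⟨x, y, h1, Set.ext h2⟩
  · rintro ⟨x, y, h, rfl⟩
    have : ∀ x y : DualAffinePoint, sD x y ≠ y → ∃ i : Fin 4,
        ∀ z : DualAffinePoint, z = x ∨ z = y ∨ z = sD x y ↔ i ∉ z.1 := by decide +kernel
    obtain ⟨i, hi⟩ := this x y h
    exact ⟨i, Set.ext hi⟩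

theorem sA_distrib : ∀ x y z, sA x (sA y z) = sA (sA x y) (sA x z) := by decide +kernel

theorem sD_distrib : ∀ x y z, sD x (sD y z) = sD (sD x y) (sD x z) := by decide +kernel

theorem image_mem (hL : IsFischerSpace L) (x : X) {l : Set X} (hl : l ∈ L) : lineMap L x '' l ∈ L := by
  have h := t3_lineMap hL.1 hL.2.1
  set t := lineMap L
  have k1 : ∀ x y z, t y z ≠ z → t x y ≠ y → t x (t y z) = t (t x y) (t x z) := by
    intro x y z h1 h2
    by_cases h3 : ({x, y, t x y} : Set X) = {y, z, t y z}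
    · have : x ∈ ({y, z, t y z} : Set X) := h3 ▸ by simp
      rcases this with rfl | rfl | rfl
      · exact absurd rfl (h.ne h2)
      · rw [h.self, h.symm _ _ h2, h.invol, h.symm x (t x y) (by rw [h.invol]; exact h2.symm), h.invol]
      · have e1 : t (t y z) y = z := by
          rw [h.symm y (t y z) (by rw [h.invol]; exact h1.symm), h.invol]
        have e2 : t (t y z) z = y := by conv_lhs => rw [← e1]; enter [1]; rw [e1]
                                        rw [h.invol]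
        rw [h.self, e1, e2, h.symm _ _ h1]
    · have h4 := hL.2.2 _ (h.line h2) _ (h.line h1) h3 ⟨y, by simp, by simp⟩
      have h5 := subset_span L ({x, y, t x y} ∪ {y, z, t y z})
      rcases h4 with h4 | h4
      · obtain ⟨f, h6, h7⟩ := h.emb_of_isomorphic t3_dual (isSubspace_span _ _) h4
        rw [← h6] at h5
        obtain ⟨x, rfl⟩ := h5 (show x ∈ _ by simp)
        obtain ⟨y, rfl⟩ := h5 (show y ∈ _ by simp)
        obtain ⟨z, rfl⟩ := h5 (show z ∈ _ by simp)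
        simp only [← h7, sD_distrib x y z]
      · obtain ⟨f, h6, h7⟩ := h.emb_of_isomorphic t3_affine (isSubspace_span _ _) h4
        rw [← h6] at h5
        obtain ⟨x, rfl⟩ := h5 (show x ∈ _ by simp)
        obtain ⟨y, rfl⟩ := h5 (show y ∈ _ by simp)
        obtain ⟨z, rfl⟩ := h5 (show z ∈ _ by simp)
        simp only [← h7, sA_distrib x y z]
  by_cases h1 : ∃ y ∈ l, t x y ≠ y
  · obtain ⟨y, hy, h1⟩ := h1
    obtain ⟨z, hz, h2⟩ := Set.exists_ne_of_one_lt_ncard (s := l) (by rw [hL.2.1 l hl]; norm_num) y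
    obtain ⟨h3, rfl⟩ := h.line_eq hl hy hz h2.symm
    have h4 := k1 x y z h3 h1
    simp only [Set.image_insert_eq, Set.image_singleton, h4]
    refine h.line fun h5 => h3 ?_
    rw [← h.invol x (t y z), h4, h5, h.invol]
  · push Not at h1
    rwa [Set.image_congr h1, Set.image_id']

/-- the involution attached to a point -/
noncomputable def perm (hL : IsFischerSpace L) (x : X) : Equiv.Perm X :=
  Function.Involutive.toPerm (lineMap L x) ((t3_lineMap hL.1 hL.2.1).invol x)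

theorem perm_isIso (hL : IsFischerSpace L) (x : X) : IsIso L L (perm hL x) := fun l =>
  ⟨image_mem hL x, fun h => by
    have := image_mem hL x h
    rwa [← Set.image_comp, show lineMap L x ∘ perm hL x = id from
      funext ((t3_lineMap hL.1 hL.2.1).invol x), Set.image_id] at this⟩

theorem distrib (hL : IsFischerSpace L) (x y z : X) :
    lineMap L x (lineMap L y z) = lineMap L (lineMap L x y) (lineMap L x z) :=
  (t3_lineMap hL.1 hL.2.1).map_of_isIso (t3_lineMap hL.1 hL.2.1) (perm_isIso hL x) y z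

/-! ### the Fischer space of a 3-transposition group -/

variable {G : Type*} [Group G] {D : Set G}

def tD (hD : IsThreeTranspositionGroup D) (x y : D) : D := ⟨x * y * x, TT.conj_mem' hD x.2 y.2⟩

theorem tD_eq_iff (hD : IsThreeTranspositionGroup D) (x y : D) : tD hD x y = y ↔ Commute (x : G) y := by
  rw [Subtype.ext_iff, Commute, SemiconjBy, tD]
  constructor
  · intro h
    conv_rhs => rw [← h]
    exact (Inv.mul_cancel_right (TT.sq hD.1 x.2) _).symm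
  · intro h
    exact (congrArg (· * (x : G)) h).trans (Inv.mul_cancel_right (TT.sq hD.1 x.2) _)

theorem t3_D (hD : IsThreeTranspositionGroup D) : T3 (threeTranspositionLines D) (tD hD) := by
  have symm : ∀ x y, tD hD x y ≠ y → tD hD y x = tD hD x y := fun x y h =>
    Subtype.ext (TT.braid hD.1 x.2 y.2 (mt (tD_eq_iff hD x y).2 h)).symm
  refine ⟨fun x => (tD_eq_iff hD x x).2 (Commute.refl _), fun x y => Subtype.ext ?_, symm, fun l => ?_⟩
  · simp only [tD, mul_assoc, Inv.mul_mul_cancel (TT.sq hD.1 x.2), TT.sq hD.1 x.2, mul_one]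
  · refine exists_congr fun x => exists_congr fun y => ?_
    rw [Ne, tD_eq_iff]
    refine and_congr_right fun h => ?_
    rw [← symm x y (mt (tD_eq_iff hD x y).1 h), TT.inv_eq hD.1 y.2]
    refine Eq.congr_right ?_
    ext z
    simp [tD, Subtype.ext_iff]

def tr (x : DualAffinePoint) : Equiv.Perm (Fin 4) :=
  if x.1 = {0, 1} then Equiv.swap 0 1 else if x.1 = {1, 2} then Equiv.swap 1 2 else
  if x.1 = {2, 3} then Equiv.swap 2 3 else if x.1 = {0, 2} then Equiv.swap 0 2 else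
  if x.1 = {1, 3} then Equiv.swap 1 3 else Equiv.swap 0 3

theorem emb_dual (hD : IsThreeTranspositionGroup D) {a b c : D} (hab : ¬ Commute (a : G) b)
    (hbc : ¬ Commute (b : G) c) (hac : Commute (a : G) c) (hne : a ≠ c) :
    Isomorphic (restrict (threeTranspositionLines D) (span (threeTranspositionLines D)
      ({b, a, tD hD b a} ∪ {b, c, tD hD b c}))) dualAffinePlaneTwo := by
  obtain ⟨φ, e1, e2, e3⟩ := Rw.exists_hom_s4 (TT.sq hD.1 a.2) (TT.sq hD.1 b.2) (TT.sq hD.1 c.2)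
    (TT.braid hD.1 a.2 b.2 hab) (TT.braid hD.1 b.2 c.2 hbc) hac
  have hinj := Rw.injective_s4 φ (by rw [e1, e3]; exact fun h => hne (Subtype.ext h))
  have hm : ∀ x, φ (tr x) ∈ D := fun x => by
    obtain ⟨σ, hσ⟩ : ∃ σ : Equiv.Perm (Fin 4), σ * Equiv.swap 0 1 * σ⁻¹ = tr x := by
      revert x; decide +kernel
    rw [← hσ, map_mul, map_mul, map_inv, e1]
    exact hD.2.1 _ a a.2
  let f : DualAffinePoint → D := fun x => ⟨φ (tr x), hm x⟩
  have hf : ∀ x y, f (sD x y) = tD hD (f x) (f y) := fun x y => Subtype.ext (by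
    have : tr (sD x y) = tr x * tr y * tr x := by revert x y; decide +kernel
    simp only [f, tD, this, map_mul])
  have fa : f ⟨{0, 1}, rfl⟩ = a := Subtype.ext e1
  have fb : f ⟨{1, 2}, rfl⟩ = b := Subtype.ext e2
  have fc : f ⟨{2, 3}, rfl⟩ = c := Subtype.ext e3
  refine (t3_D hD).isomorphic_of_emb t3_dual f (fun x y h => ?_) hf ((t3_D hD).span_eq f hf ?_ ?_)
  · have : Function.Injective tr := by decide +kernel
    exact this (hinj (congrArg Subtype.val h))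
  · rw [← fa, ← fb, ← fc, ← hf, ← hf]
    rintro _ ((rfl | rfl | rfl) | (rfl | rfl | rfl)) <;> exact ⟨_, rfl⟩
  · intro P h1 h2 y
    have pa := h2 ⟨{0, 1}, rfl⟩ (by simp [fa])
    have pb := h2 ⟨{1, 2}, rfl⟩ (by simp [fb])
    have pc := h2 ⟨{2, 3}, rfl⟩ (by simp [fc])
    have : ∀ y : DualAffinePoint, y = ⟨{0, 1}, rfl⟩ ∨ y = ⟨{1, 2}, rfl⟩ ∨ y = ⟨{2, 3}, rfl⟩ ∨
        y = sD ⟨{0, 1}, rfl⟩ ⟨{1, 2}, rfl⟩ ∨ y = sD ⟨{1, 2}, rfl⟩ ⟨{2, 3}, rfl⟩ ∨
        y = sD (sD ⟨{0, 1}, rfl⟩ ⟨{1, 2}, rfl⟩) ⟨{2, 3}, rfl⟩ := by decide +kernel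
    rcases this y with rfl | rfl | rfl | rfl | rfl | rfl
    exacts [pa, pb, pc, h1 _ _ pa pb, h1 _ _ pb pc, h1 _ _ (h1 _ _ pa pb) pc]

def wA (x : Fin 2 → ZMod 3) : List ℕ :=
  if x = ![0, 0] then [1] else if x = ![1, 0] then [0] else if x = ![2, 0] then [1, 0, 1] else
  if x = ![0, 1] then [2] else if x = ![0, 2] then [1, 2, 1] else if x = ![2, 2] then [0, 2, 0] else
  if x = ![1, 1] then [1, 0, 2, 0, 1] else if x = ![2, 1] then [0, 1, 2, 1, 0] else [2, 1, 0, 1, 2]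

theorem emb_affine (hD : IsThreeTranspositionGroup D) {a b c : D} (hab : ¬ Commute (a : G) b)
    (hbc : ¬ Commute (b : G) c) (hac : (a : G) * c * a = c * a * c)
    (h4 : (tD hD b a : G) * c * tD hD b a = c * tD hD b a * c) (hne : a ≠ c) (hne' : a ≠ tD hD b c) :
    Isomorphic (restrict (threeTranspositionLines D) (span (threeTranspositionLines D)
      ({b, a, tD hD b a} ∪ {b, c, tD hD b c}))) affinePlaneThree := by
  have hV : Rw.Valid (Rw.gen4 (a : G) b c 1) Rw.h54R := Rw.h54_valid (by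
    have h5 := TT.braid hD.1 a.2 b.2 hab
    have h6 := TT.braid hD.1 b.2 c.2 hbc
    simp only [tD, ← mul_assoc] at h4
    simp only [Rw.Valid, Rw.h54Base, List.forall_mem_cons, Rw.ev, Rw.gen4, mul_one, ← mul_assoc]
    exact ⟨TT.sq hD.1 a.2, TT.sq hD.1 b.2, TT.sq hD.1 c.2, h5.symm, hac.symm, h6.symm, h4, by simp⟩)
  have hf0 : ∀ x y, Rw.ev (Rw.gen4 (a : G) b c 1) (wA (sA x y)) = Rw.ev (Rw.gen4 (a : G) b c 1) (wA x) *
      Rw.ev (Rw.gen4 (a : G) b c 1) (wA y) * Rw.ev (Rw.gen4 (a : G) b c 1) (wA x) := fun x y => by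
    rw [← Rw.ev_append, ← Rw.ev_append]
    refine Rw.eq_of_nf hV 16 _ _ ?_
    revert x y; decide +kernel
  have gen : ∀ P : (Fin 2 → ZMod 3) → Prop, (∀ x y, P x → P y → P (sA x y)) → P ![0, 0] → P ![1, 0] →
      P ![0, 1] → ∀ y, P y := by
    intro P h1 pb pa pc y
    have : ∀ y : Fin 2 → ZMod 3, y = ![0, 0] ∨ y = ![1, 0] ∨ y = ![0, 1] ∨ y = sA ![0, 0] ![1, 0] ∨
        y = sA ![0, 0] ![0, 1] ∨ y = sA ![1, 0] ![0, 1] ∨ y = sA ![0, 0] (sA ![1, 0] ![0, 1]) ∨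
        y = sA ![1, 0] (sA ![0, 0] ![0, 1]) ∨ y = sA ![0, 1] (sA ![0, 0] ![1, 0]) := by decide +kernel
    rcases this y with rfl | rfl | rfl | rfl | rfl | rfl | rfl | rfl | rfl
    exacts [pb, pa, pc, h1 _ _ pb pa, h1 _ _ pb pc, h1 _ _ pa pc, h1 _ _ pb (h1 _ _ pa pc),
      h1 _ _ pa (h1 _ _ pb pc), h1 _ _ pc (h1 _ _ pb pa)]
  have e1 : Rw.ev (Rw.gen4 (a : G) b c 1) (wA ![1, 0]) = a := mul_one _
  have e2 : Rw.ev (Rw.gen4 (a : G) b c 1) (wA ![0, 0]) = b := mul_one _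
  have e3 : Rw.ev (Rw.gen4 (a : G) b c 1) (wA ![0, 1]) = c := mul_one _
  have hm : ∀ x, Rw.ev (Rw.gen4 (a : G) b c 1) (wA x) ∈ D :=
    gen _ (fun x y hx hy => hf0 x y ▸ TT.conj_mem' hD hx hy) (by rw [e2]; exact b.2) (by rw [e1]; exact a.2)
      (by rw [e3]; exact c.2)
  let f : (Fin 2 → ZMod 3) → D := fun x => ⟨_, hm x⟩
  have hf : ∀ x y, f (sA x y) = tD hD (f x) (f y) := fun x y => Subtype.ext (hf0 x y)
  have fa : f ![1, 0] = a := Subtype.ext e1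
  have fb : f ![0, 0] = b := Subtype.ext e2
  have fc : f ![0, 1] = c := Subtype.ext e3
  have h := t3_D hD
  have n1 : tD hD b a ≠ a := fun h => hab ((tD_eq_iff hD b a).1 h).symm
  have n2 : tD hD b c ≠ c := fun h => hbc ((tD_eq_iff hD b c).1 h)
  refine h.isomorphic_of_emb t3_affine f (fun x y hxy => ?_) hf (h.span_eq f hf ?_ ?_)
  · by_contra hn
    have : ∀ x y : Fin 2 → ZMod 3, x ≠ y → ∃ z, (sA y z = ![0, 0] ∧ (sA x z = ![1, 0] ∨
        sA x z = sA ![0, 0] ![1, 0] ∨ sA x z = ![0, 1] ∨ sA x z = sA ![0, 0] ![0, 1])) ∨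
        (sA x z = ![1, 0] ∧ (sA y z = ![0, 1] ∨ sA y z = sA ![0, 0] ![0, 1])) ∨
        (sA y z = ![1, 0] ∧ (sA x z = ![0, 1] ∨ sA x z = sA ![0, 0] ![0, 1])) := by decide +kernel
    obtain ⟨z, hz⟩ := this x y hn
    have e : f (sA x z) = f (sA y z) := by rw [hf, hf, hxy]
    rcases hz with ⟨h5, h6 | h6 | h6 | h6⟩ | ⟨h5, h6 | h6⟩ | ⟨h5, h6 | h6⟩ <;>
      simp only [h5, h6, hf, fa, fb, fc] at e
    exacts [h.ne n1 e.symm, h.ne' n1 e, h.ne n2 e.symm, h.ne' n2 e, hne e, hne' e, hne e.symm, hne' e.symm]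
  · rw [← fa, ← fb, ← fc, ← hf, ← hf]
    rintro _ ((rfl | rfl | rfl) | (rfl | rfl | rfl)) <;> exact ⟨_, rfl⟩
  · intro P h1 h2
    exact gen P h1 (h2 _ (by simp [fb])) (h2 _ (by simp [fa])) (h2 _ (by simp [fc]))

theorem isFischerSpace (hD : IsThreeTranspositionGroup D) : IsFischerSpace (threeTranspositionLines D) := by
  have h := t3_D hD
  refine ⟨h.partialLinear, h.ncard, fun l hl m hm hlm ⟨b, hbl, hbm⟩ => ?_⟩
  obtain ⟨a, ha, h1⟩ := Set.exists_ne_of_one_lt_ncard (s := l) (by rw [h.ncard l hl]; norm_num) b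
  obtain ⟨c, hc, h2⟩ := Set.exists_ne_of_one_lt_ncard (s := m) (by rw [h.ncard m hm]; norm_num) b
  have key : ∀ x ∈ l, x ≠ b → x ∉ m := fun x h3 h4 h5 =>
    hlm (h.partialLinear l hl m hm x b h4 h3 hbl h5 hbm)
  obtain ⟨h3, e1⟩ := h.line_eq hl hbl ha h1.symm
  obtain ⟨h4, e2⟩ := h.line_eq hm hbm hc h2.symm
  have hab : ¬ Commute (a : G) b := fun h => h3 ((tD_eq_iff hD b a).2 h.symm)
  have hbc : ¬ Commute (b : G) c := fun h => h4 ((tD_eq_iff hD b c).2 h)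
  by_cases h5 : Commute (a : G) c
  · rw [e1, e2]
    exact Or.inl (emb_dual hD hab hbc h5 fun h => key a ha h1 (h ▸ hc))
  have h6 : tD hD b a ∈ l := e1 ▸ by simp
  by_cases h7 : Commute (tD hD b a : G) c
  · obtain ⟨h8, e3⟩ := h.line_eq hl hbl h6 (h.ne' h3).symm
    rw [e3, e2]
    exact Or.inl (emb_dual hD (fun h => h8 ((tD_eq_iff hD b _).2 h.symm)) hbc h7
      fun h9 => key _ h6 (h.ne' h3) (h9 ▸ hc))
  rw [e1, e2]
  exact Or.inr (emb_affine hD hab hbc (TT.braid hD.1 a.2 c.2 h5) (TT.braid hD.1 (tD hD b a).2 c.2 h7)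
    (fun h => key a ha h1 (h ▸ hc)) fun h9 => key a ha h1 (by rw [h9, e2]; simp))

end CA.Fisch
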